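import Cfsg.Agent.H285.IF.CoTwoA

/-!
# S5719, cell `co2`, part 2: subgroups of `E = 2^10` of index `≤ 15` contain a 2A involution (helper285)

`E` has 77 elements in 2A (`DL`, coordinates with respect to the basis `B10`).  For each character `ψ` of `E` the number
of elements `d` of `DL` with `ψ(d) = -1` is divisible by 8 (`chkN`).  If `W ≤ E` has no element in 2A, then
`0 = ∑ ψ(d) = 77 |E : W| - 16 k` (sum over `d` and the characters of `E/W`), so `16 ∣ |E : W|`.
-/

set_option autoImplicit false
set_option maxRecDepth 100000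

namespace Cfsg.Agent.H285.IFCoTwoB

open Subgroup

/-- all numbers below `n` -/
def allB (f : ℕ → Bool) (n : ℕ) : Bool := Nat.rec true (fun i ih => cond (f i) ih false) n

theorem allB_iff (f : ℕ → Bool) (n : ℕ) : allB f n = true ↔ ∀ i < n, f i = true := by
  induction n with
  | zero => exact ⟨fun _ i hi => absurd hi (Nat.not_lt_zero i), fun _ => rfl⟩
  | succ n ih =>
    change cond (f n) (allB f n) false = true ↔ _
    constructor
    · intro h i hi
      cases h1 : f n
      · rw [h1] at h
        exact absurd h Bool.false_ne_true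
      · rw [h1] at h
        rcases Nat.lt_succ_iff_lt_or_eq.1 hi with h2 | h2
        · exact ih.1 h i h2
        · rw [h2, h1]
    · intro h
      rw [h n (Nat.lt_succ_self n)]
      exact ih.2 fun i hi => h i (Nat.lt_succ_of_lt hi)

/-- bit zero -/
def bt (c : ℕ) : Bool := Nat.beq (Nat.land c 1) 1

theorem bt_eq (c : ℕ) : bt c = c.testBit 0 := by
  have h : c &&& 1 = 0 ∨ c &&& 1 = 1 := by rw [Nat.and_one_is_mod]; omega
  rw [Nat.testBit_zero]
  unfold bt
  change Nat.beq (c &&& 1) 1 = _
  rw [Nat.and_one_is_mod] at h ⊢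
  rcases h with h | h <;> rw [h] <;> rfl

theorem bt_xor (c d : ℕ) : bt (c ^^^ d) = (bt c ^^ bt d) := by rw [bt_eq, bt_eq, bt_eq, Nat.testBit_xor]

theorem bt_and (c d : ℕ) : bt (c &&& d) = (bt c && bt d) := by rw [bt_eq, bt_eq, bt_eq, Nat.testBit_and]

/-- the combination of masks -/
def cmb : List ℕ → ℕ → ℕ
  | [], _ => 0
  | b :: l, c => cond (bt c) (Nat.xor b (cmb l (Nat.shiftRight c 1))) (cmb l (Nat.shiftRight c 1))

theorem cmb_cons (b : ℕ) (l : List ℕ) (c : ℕ) :
    cmb (b :: l) c = cond (bt c) (b ^^^ cmb l (c >>> 1)) (cmb l (c >>> 1)) := rfl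

theorem cmb_xor (l : List ℕ) : ∀ c d : ℕ, cmb l (c ^^^ d) = cmb l c ^^^ cmb l d := by
  induction l with
  | nil => intro c d; exact (Nat.xor_self 0).symm
  | cons b l ih =>
    intro c d
    rw [cmb_cons, cmb_cons, cmb_cons, Nat.shiftRight_xor_distrib, ih, bt_xor]
    cases bt c <;> cases bt d
    · rfl
    · change b ^^^ (cmb l (c >>> 1) ^^^ cmb l (d >>> 1)) = cmb l (c >>> 1) ^^^ (b ^^^ cmb l (d >>> 1))
      rw [← Nat.xor_assoc, ← Nat.xor_assoc, Nat.xor_comm b]
    · change b ^^^ (cmb l (c >>> 1) ^^^ cmb l (d >>> 1)) = b ^^^ cmb l (c >>> 1) ^^^ cmb l (d >>> 1)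
      rw [Nat.xor_assoc]
    · change cmb l (c >>> 1) ^^^ cmb l (d >>> 1) = b ^^^ cmb l (c >>> 1) ^^^ (b ^^^ cmb l (d >>> 1))
      rw [Nat.xor_assoc, ← Nat.xor_assoc (cmb l (c >>> 1)) b, Nat.xor_comm (cmb l (c >>> 1)) b, Nat.xor_assoc b,
        ← Nat.xor_assoc b b, Nat.xor_self, Nat.zero_xor]

section general

variable {M : Type*} [CommMonoid M]

/-- the product of the elements of a list at the bits of `c` -/
def gp : List M → ℕ → M
  | [], _ => 1
  | b :: l, c => (if bt c = true then b else 1) * gp l (c >>> 1)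

theorem gp_cons (b : M) (l : List M) (c : ℕ) : gp (b :: l) c = (if bt c = true then b else 1) * gp l (c >>> 1) := rfl

theorem gp_map {M' : Type*} [CommMonoid M'] (f : M →* M') (l : List M) : ∀ c, f (gp l c) = gp (l.map f) c := by
  induction l with
  | nil => intro c; exact map_one f
  | cons b l ih =>
    intro c
    rw [List.map_cons, gp_cons, gp_cons, map_mul, ih]
    congr 1
    split_ifs
    · rfl
    · exact map_one f

end general

/-- parity of the `n` low bits -/
def pr (n c : ℕ) : Bool := Nat.rec (fun _ => false) (fun _ ih c => Bool.xor (bt c) (ih (Nat.shiftRight c 1))) n c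

theorem pr_succ (n c : ℕ) : pr (n + 1) c = (bt c ^^ pr n (c >>> 1)) := rfl

/-- signs -/
theorem exists_sgn : ∀ l : List ℂ, (∀ s ∈ l, s = 1 ∨ s = -1) →
    ∃ t < 2 ^ l.length, ∀ c, gp l c = if pr l.length (t &&& c) = true then -1 else 1 := by
  intro l
  induction l with
  | nil => exact fun _ => ⟨0, by norm_num, fun c => rfl⟩
  | cons s l ih =>
    intro h
    obtain ⟨t, ht, hc⟩ := ih fun s hs => h s (List.mem_cons_of_mem _ hs)
    rcases h s List.mem_cons_self with hs | hs
    · refine ⟨2 * t, by rw [List.length_cons, pow_succ]; omega, fun c => ?_⟩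
      have h0 : bt (2 * t) = false := by rw [bt_eq, Nat.testBit_zero]; simp
      have h1 : (2 * t) >>> 1 = t := by rw [Nat.shiftRight_one]; omega
      rw [gp_cons, hc, hs, ite_self, one_mul, List.length_cons, pr_succ, bt_and, h0, Bool.false_and,
        Bool.false_xor, Nat.shiftRight_and_distrib, h1]
    · refine ⟨2 * t + 1, by rw [List.length_cons, pow_succ]; omega, fun c => ?_⟩
      have h0 : bt (2 * t + 1) = true := by
        rw [bt_eq, Nat.testBit_zero]
        simp
      have h1 : (2 * t + 1) >>> 1 = t := by rw [Nat.shiftRight_one]; omega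
      rw [gp_cons, hc, hs, List.length_cons, pr_succ, bt_and, h0, Bool.true_and, Nat.shiftRight_and_distrib, h1]
      cases bt c <;> cases pr l.length (t &&& c >>> 1) <;> simp

/-- coordinates of the elements in 2A -/
def DL : List ℕ := [126, 181, 223, 239, 251, 319, 327, 377, 383, 415, 427, 446, 474, 477, 492, 495, 499, 502, 503, 509, 511, 575, 605, 619, 631, 654, 699, 703, 723, 735, 743, 749, 758, 760, 765, 766, 767, 799, 813, 818, 859, 862, 878, 879, 885, 887, 891, 892, 895, 919, 921, 935, 943, 951, 955, 956, 957, 958, 971, 973, 975, 980, 983, 990, 991, 993, 998, 1002, 1007, 1011, 1013, 1017, 1018, 1019, 1021, 1022, 1023]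

/-- table of parities -/
def PT : ℕ := 0x6996966996696996966969966996966996696996699696696996966996696996966969966996966969969669966969966996966996696996966969966996966996696996699696696996966996696996699696699669699696696996699696696996966996696996966969966996966996696996699696696996966996696996

/-- table lookup -/
def pt (c : ℕ) : Bool := bt (Nat.shiftRight PT c)

theorem chkPT : allB (fun c => Bool.not (Bool.xor (pt c) (pr 10 c))) 1024 = true := by
  decide +kernel

theorem pt_eq {c : ℕ} (hc : c < 1024) : pr 10 c = pt c := by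
  have h := (allB_iff _ _).1 chkPT c hc
  cases h1 : pt c <;> cases h2 : pr 10 c <;> rw [h1, h2] at h <;> first | rfl | exact absurd h (by decide)

/-- number of elements of the list with odd product with `t` -/
def cnt (t : ℕ) (l : List ℕ) : ℕ := List.rec 0 (fun d _ ih => cond (pt (Nat.land t d)) (Nat.succ ih) ih) l

theorem chkN : allB (fun t => Nat.beq (Nat.mod (cnt t DL) 8) 0) 1024 = true := by
  decide +kernel

theorem len_DL : DL.length = 77 := by decide +kernel

theorem sum_eq (t : ℕ) (ht : t < 1024) (l : List ℕ) :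
    (l.map fun d => if pr 10 (t &&& d) = true then (-1 : ℂ) else 1).sum = (l.length : ℂ) - 2 * (cnt t l : ℂ) := by
  induction l with
  | nil => simp [cnt]
  | cons d l ih =>
    rw [List.map_cons, List.sum_cons, ih, List.length_cons]
    have h1 : t &&& d < 1024 := Nat.and_lt_two_pow d (n := 10) ht |> fun h => by
      first | exact h | exact lt_of_le_of_lt Nat.and_le_left ht
    rw [pt_eq h1]
    have h2 : cnt t (d :: l) = cond (pt (t &&& d)) (Nat.succ (cnt t l)) (cnt t l) := rfl
    rw [h2]
    cases pt (t &&& d)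
    · simp only [cond_false, Bool.false_eq_true, if_false]
      push_cast
      ring
    · simp only [cond_true, if_true]
      push_cast
      ring

/-- the sum of a character over `DL` -/
theorem sum_char (s : List ℂ) (hl : s.length = 10) (hs : ∀ a ∈ s, a = 1 ∨ a = -1) :
    ∃ k : ℕ, (DL.map fun d => gp s d).sum = 77 - 16 * (k : ℂ) := by
  obtain ⟨t, ht, hc⟩ := exists_sgn s hs
  rw [hl] at ht hc
  have ht' : t < 1024 := ht
  have h1 := (allB_iff _ _).1 chkN t ht'
  have h2 : cnt t DL % 8 = 0 := Nat.eq_of_beq_eq_true h1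
  refine ⟨cnt t DL / 8, ?_⟩
  have h3 : (DL.map fun d => gp s d) = DL.map fun d => if pr 10 (t &&& d) = true then (-1 : ℂ) else 1 := by
    apply List.map_congr_left
    intro d _
    exact hc d
  rw [h3, sum_eq t ht', len_DL]
  have h4 : cnt t DL = 8 * (cnt t DL / 8) := by omega
  have h5 : ((cnt t DL : ℕ) : ℂ) = 8 * ((cnt t DL / 8 : ℕ) : ℂ) := by
    conv_lhs => rw [h4]
    push_cast
    ring
  rw [h5]
  push_cast
  ring

/-- **A subgroup of index `≤ 15`.** -/
theorem main {G : Type*} [CommGroup G] [Finite G] (N : Subgroup G) (hN : N.index ≤ 15) (b : List G)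
    (hl : b.length = 10) (hb : ∀ x ∈ b, x * x = 1) : ∃ d ∈ DL, gp b d ∈ N := by
  classical
  by_contra hcon
  push Not at hcon
  have hfin : Finite (G ⧸ N) := inferInstance
  let Q := Additive (G ⧸ N)
  have : Fintype Q := Fintype.ofFinite _
  have h1 : ∀ ψ : AddChar Q ℂ, ∃ k : ℕ, (DL.map fun d => ψ (Additive.ofMul ((gp b d : G) : G ⧸ N))).sum = 77 - 16 * (k : ℂ) := by
    intro ψ
    let f : G →* ℂ := 
      { toFun := fun g => ψ (Additive.ofMul (g : G ⧸ N))
        map_one' := ψ.map_zero_eq_one
        map_mul' := fun g g' => ψ.map_add_eq_mul (Additive.ofMul (g : G ⧸ N)) (Additive.ofMul (g' : G ⧸ N)) }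
    obtain ⟨k, hk⟩ := sum_char (b.map f) (by rw [List.length_map, hl]) (by
      intro a ha
      obtain ⟨x, hx, rfl⟩ := List.mem_map.1 ha
      have h2 : f x * f x = 1 := by rw [← map_mul, hb x hx, map_one]
      exact mul_self_eq_one_iff.1 h2)
    refine ⟨k, ?_⟩
    rw [← hk]
    congr 1
    apply List.map_congr_left
    intro d _
    exact gp_map f b d
  choose k hk using h1
  have h2 : ∑ ψ : AddChar Q ℂ, (DL.map fun d => ψ (Additive.ofMul ((gp b d : G) : G ⧸ N))).sum = 0 := by
    have h3 : ∀ l : List ℕ, (∀ d ∈ l, gp b d ∉ N) →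
        ∑ ψ : AddChar Q ℂ, (l.map fun d => ψ (Additive.ofMul ((gp b d : G) : G ⧸ N))).sum = 0 := by
      intro l
      induction l with
      | nil => intro _; simp
      | cons d l ih =>
        intro h
        have h4 : ∑ ψ : AddChar Q ℂ, ψ (Additive.ofMul ((gp b d : G) : G ⧸ N)) = 0 := by
          rw [AddChar.sum_apply_eq_zero_iff_ne_zero]
          intro h5
          exact h d List.mem_cons_self ((QuotientGroup.eq_one_iff _).1 h5)
        simp only [List.map_cons, List.sum_cons, Finset.sum_add_distrib]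
        rw [h4, ih fun d hd => h d (List.mem_cons_of_mem _ hd), add_zero]
    exact h3 DL hcon
  rw [Finset.sum_congr rfl (fun ψ _ => hk ψ), Finset.sum_sub_distrib, Finset.sum_const, Finset.card_univ,
    AddChar.card_eq, nsmul_eq_mul, ← Finset.mul_sum, ← Nat.cast_sum] at h2
  have h3 : Fintype.card Q = N.index := by
    rw [← Nat.card_eq_fintype_card]
    rfl
  rw [h3] at h2
  have h4 : N.index * 77 = 16 * ∑ ψ : AddChar Q ℂ, k ψ := by
    have h5 : ((N.index * 77 : ℕ) : ℂ) = ((16 * ∑ ψ : AddChar Q ℂ, k ψ : ℕ) : ℂ) := by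
      push_cast
      push_cast at h2
      linear_combination h2
    exact_mod_cast h5
  have h5 : N.index ≠ 0 := Subgroup.index_ne_zero_of_finite
  omega

/-- products along a list, in a group -/
def gq {G : Type*} [Group G] (f : ℕ → G) : List ℕ → ℕ → G
  | [], _ => 1
  | b :: l, c => (if bt c = true then f b else 1) * gq f l (c >>> 1)

theorem gq_cons {G : Type*} [Group G] (f : ℕ → G) (b : ℕ) (l : List ℕ) (c : ℕ) :
    gq f (b :: l) c = (if bt c = true then f b else 1) * gq f l (c >>> 1) := rfl

/-- **The same for a subgroup.** -/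
theorem main' {G : Type*} [Group G] [Finite G] {E A : Subgroup G} (hE : ∀ a ∈ E, ∀ b ∈ E, a * b = b * a)
    (hA : A.relIndex E ≤ 15) (f : ℕ → G) (l : List ℕ) (hl : l.length = 10) (hf : ∀ b ∈ l, f b ∈ E)
    (hs : ∀ b ∈ l, f b * f b = 1) : ∃ d ∈ DL, gq f l d ∈ A := by
  classical
  let i : CommGroup E := { (inferInstance : Group E) with
    mul_comm := fun a b => Subtype.ext (hE a a.2 b b.2) }
  let fE : ℕ → E := fun b => if h : f b ∈ E then ⟨f b, h⟩ else 1
  have hfE : ∀ b, f b ∈ E → ((fE b : E) : G) = f b := by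
    intro b hb
    change (((if h : f b ∈ E then ⟨f b, h⟩ else 1 : E) : E) : G) = f b
    rw [dif_pos hb]
  obtain ⟨d, hd, hdA⟩ := main (A.subgroupOf E) hA (l.map fE) (by rw [List.length_map, hl]) (by
    intro x hx
    obtain ⟨m, hm, rfl⟩ := List.mem_map.1 hx
    apply Subtype.ext
    change ((fE m : E) : G) * ((fE m : E) : G) = 1
    rw [hfE m (hf m hm), hs m hm])
  have key : ∀ (l : List ℕ), (∀ b ∈ l, f b ∈ E) → ∀ c, ((gp (l.map fE) c : E) : G) = gq f l c := by
    intro l
    induction l with
    | nil => exact fun _ _ => rfl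
    | cons b l ih =>
      intro h c
      have h1 := ih (fun b' hb => h b' (List.mem_cons_of_mem _ hb)) (c >>> 1)
      have h2 := h b List.mem_cons_self
      rw [List.map_cons, gp_cons, gq_cons]
      change (((if bt c = true then fE b else 1 : E) : E) : G) * ((gp (l.map fE) (c >>> 1) : E) : G) = _
      rw [h1]
      cases bt c
      · rfl
      · change ((fE b : E) : G) * _ = f b * _
        rw [hfE b h2]
  refine ⟨d, hd, ?_⟩
  have h1 : ((gp (l.map fE) d : E) : G) ∈ A := hdA
  rwa [key l hf] at h1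

end Cfsg.Agent.H285.IFCoTwoB
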