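import Cfsg.Agent.H285.IF.CoTwoC

/-!
# S5719, cell `co2`, part 4: the row (helper285)

Lower bounds of `|C(t)|` for `t = ge my` (2B), `ge mv` (2C), hence `|C(t) : A ∩ C(t)| ≤ 31`, and the row.
-/

set_option autoImplicit false
set_option maxRecDepth 100000

namespace Cfsg.Agent.H285.IFCoTwoD

open Cfsg Subgroup Cfsg.Agent.H209.Fxy Cfsg.Agent.H285.IFCoTwoA Cfsg.Agent.H285.IFCoTwoC
open Cfsg.Agent.SporadicA.GolayBase Cfsg.Agent.SporadicA.GolayPerm
open Cfsg.Agent.SporadicStructure.M24El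
open Cfsg.Agent.Co2Type.Mono Cfsg.Agent.Co2Type.TGroup Cfsg.Agent.Co2Type.TData Cfsg.Agent.Co2Type.FactsD
open Cfsg.Agent.Co2Type.TCard Cfsg.Agent.Co2Type.Facts Cfsg.Agent.Co2Type.FactsCo2
open Cfsg.Agent.KFacts.CoTwo.RFin (mul_zero')

/-! ### orders of permutations -/

/-- powers -/
def pp (Q : ℕ) : ℕ → ℕ
  | 0 => idP
  | k + 1 => pcomp (pp Q k) Q

theorem pp_spec {Q : ℕ} (hQ : okP Q = true) : ∀ k, okP (pp Q k) = true ∧ mo2 0 Q ^ k = mo2 0 (pp Q k)
  | 0 => ⟨okP_idP, by rw [pow_zero]; exact mo2_one.symm⟩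
  | k + 1 => by
    obtain ⟨h1, h2⟩ := pp_spec hQ k
    refine ⟨okP_pcomp h1 hQ, ?_⟩
    rw [pow_succ, h2, mul_zero' h1 hQ]
    rfl

/-- test -/
def chkO (n Q p : ℕ) : Bool :=
  okP Q && Nat.blt Q (2 ^ 120) && Nat.beq (pimg Q n) n && !(Nat.beq Q idP) && Nat.beq (pp Q p) idP

theorem chkO_spec {n Q p : ℕ} (hn : inE n = true) (hp : p.Prime) (h : chkO n Q p = true) :
    mo2 0 Q ∈ centralizer ({ge n} : Set Spor.Co2) ∧ orderOf (mo2 0 Q) = p := by
  unfold chkO at h
  simp only [Bool.and_eq_true, Nat.blt_eq, Bool.not_eq_true'] at h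
  obtain ⟨⟨⟨⟨h1, h2⟩, h3⟩, h4⟩, h5⟩ := h
  refine ⟨perm_mem hn h1 h2 (Nat.eq_of_beq_eq_true h3), ?_⟩
  have : Fact p.Prime := ⟨hp⟩
  refine orderOf_eq_prime ?_ ?_
  · rw [(pp_spec h1 p).2, Nat.eq_of_beq_eq_true h5, mo2_one]
  · intro hc
    have h6 := (mo2_inj inE_zero inE_zero h1 okP_idP h2 idP_lt (hc.trans mo2_one.symm)).2
    rw [h6, Nat.beq_refl] at h4
    exact Bool.noConfusion h4

theorem dvd_of_chk {n Q p : ℕ} (hn : inE n = true) (hp : p.Prime) (h : chkO n Q p = true) :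
    p ∣ Nat.card (centralizer ({ge n} : Set Spor.Co2)) := by
  obtain ⟨h1, h2⟩ := chkO_spec hn hp h
  rw [← h2]
  exact Subgroup.orderOf_dvd_natCard _ h1

/-- two commuting elements of order 3 -/
theorem nine_dvd {G : Type*} [Group G] [Finite G] {C : Subgroup G} {a b : G} (ha : a ∈ C) (hb : b ∈ C)
    (h : a * b = b * a) (oa : orderOf a = 3) (ob : orderOf b = 3) (h1 : b ≠ a) (h2 : b ≠ a * a) :
    9 ∣ Nat.card C := by
  have hb1 : b ≠ 1 := by
    rintro rfl
    rw [orderOf_one] at ob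
    omega
  have hnb : b ∉ zpowers a := by
    classical
    intro hb
    rw [mem_zpowers_iff_mem_range_orderOf, oa] at hb
    simp only [Finset.mem_image, Finset.mem_range] at hb
    obtain ⟨i, hi, he⟩ := hb
    interval_cases i
    · rw [pow_zero] at he; exact hb1 he.symm
    · rw [pow_one] at he; exact h1 he.symm
    · rw [pow_two] at he; exact h2 he.symm
  have hd : Disjoint (zpowers a) (zpowers b) := by
    rw [disjoint_iff]
    have h3 : Nat.card (zpowers a ⊓ zpowers b : Subgroup G) ∣ 3 := by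
      rw [← ob, ← Nat.card_zpowers]
      exact card_dvd_of_le inf_le_right
    rcases (Nat.dvd_prime Nat.prime_three).1 h3 with h4 | h4
    · exact Subgroup.eq_bot_of_card_eq _ h4
    · exfalso
      have h5 : (zpowers a ⊓ zpowers b : Subgroup G) = zpowers b := by
        have : Finite (zpowers b) := Nat.finite_of_card_ne_zero (by rw [Nat.card_zpowers, ob]; norm_num)
        exact Subgroup.eq_of_le_of_card_ge inf_le_right (by rw [h4, Nat.card_zpowers, ob])
      exact hnb (inf_eq_right.1 h5 (mem_zpowers b))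
  have hcomm : ∀ (x : zpowers a) (y : zpowers b), Commute ((zpowers a).subtype x) ((zpowers b).subtype y) := by
    rintro ⟨x, hx⟩ ⟨y, hy⟩
    obtain ⟨i, rfl⟩ := mem_zpowers_iff.1 hx
    obtain ⟨j, rfl⟩ := mem_zpowers_iff.1 hy
    exact ((show Commute a b from h).zpow_left i).zpow_right j
  set f := MonoidHom.noncommCoprod (zpowers a).subtype (zpowers b).subtype hcomm with hf
  have hinj : Function.Injective f := by
    rw [hf, MonoidHom.noncommCoprod_injective]
    refine ⟨Subtype.val_injective, Subtype.val_injective, ?_⟩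
    rw [range_subtype, range_subtype]
    exact hd
  have hr : f.range ≤ C := by
    rintro _ ⟨⟨x, y⟩, rfl⟩
    rw [hf, MonoidHom.noncommCoprod_apply]
    exact mul_mem ((zpowers_le.2 ha) x.2) ((zpowers_le.2 hb) y.2)
  have h6 : Nat.card f.range = 9 := by
    rw [← Nat.card_congr (MonoidHom.ofInjective hinj).toEquiv, Nat.card_prod, Nat.card_zpowers, Nat.card_zpowers,
      oa, ob]
  rw [← h6]
  exact card_dvd_of_le hr

/-! ### the bounds -/

/-- order 3, fixing `my` -/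
def y3 : ℕ := 962588800432096709511364735555157440
/-- order 7, fixing `my` -/
def y7 : ℕ := 958755305823609896244600931009871264
/-- order 3, fixing `mv` -/
def v3a : ℕ := 984169955182683897711343007303962688
/-- order 3, fixing `mv` -/
def v3b : ℕ := 971189404800796851940614823314831936
/-- order 5, fixing `mv` -/
def v5 : ℕ := 970526225567953356228459487389426112

theorem chky3 : chkO my y3 3 = true := by decide +kernel
theorem chky7 : chkO my y7 7 = true := by decide +kernel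
theorem chkv3a : chkO mv v3a 3 = true := by decide +kernel
theorem chkv3b : chkO mv v3b 3 = true := by decide +kernel
theorem chkv5 : chkO mv v5 5 = true := by decide +kernel

theorem chkc : (Nat.beq (pcomp v3a v3b) (pcomp v3b v3a) && !(Nat.beq v3b v3a) && !(Nat.beq v3b (pcomp v3a v3a)) &&
    okP v3a && okP v3b && Nat.blt v3a (2 ^ 120) && Nat.blt v3b (2 ^ 120) && Nat.blt (pcomp v3a v3a) (2 ^ 120)) =
    true := by decide +kernel

theorem nine : 9 ∣ Nat.card (centralizer ({ge mv} : Set Spor.Co2)) := by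
  have hfin := IFCoTwoA.fin
  have h := chkc
  simp only [Bool.and_eq_true, Nat.blt_eq, Bool.not_eq_true'] at h
  obtain ⟨⟨⟨⟨⟨⟨⟨h1, h2⟩, h3⟩, h4⟩, h5⟩, h6⟩, h7⟩, h8⟩ := h
  obtain ⟨m1, o1⟩ := chkO_spec iv Nat.prime_three chkv3a
  obtain ⟨m2, o2⟩ := chkO_spec iv Nat.prime_three chkv3b
  refine nine_dvd m1 m2 ?_ o1 o2 ?_ ?_
  · rw [mul_zero' h4 h5, mul_zero' h5 h4, Nat.eq_of_beq_eq_true h1]
  · intro hc
    have h9 := (mo2_inj inE_zero inE_zero h5 h4 h7 h6 hc).2
    rw [h9, Nat.beq_refl] at h2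
    exact Bool.noConfusion h2
  · intro hc
    rw [mul_zero' h4 h4] at hc
    have h9 := (mo2_inj inE_zero inE_zero h5 (okP_pcomp h4 h4) h7 h8 hc).2
    rw [← h9, Nat.beq_refl] at h3
    exact Bool.noConfusion h3

theorem cent_T_le (x : Spor.Co2) : Nat.card (cent T x) ∣ Nat.card (centralizer ({x} : Set Spor.Co2)) :=
  card_dvd_of_le fun _ hg => mem_centralizer_singleton_iff.2 (mem_cent.1 hg).2.symm

theorem index_le {x : Spor.Co2} (h : 1260800 ≤ Nat.card (centralizer ({x} : Set Spor.Co2))) :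
    (centralizer ({x} : Set Spor.Co2)).index ≤ 33554432 := by
  have h1 := (centralizer ({x} : Set Spor.Co2)).index_mul_card
  rw [card_co2] at h1
  by_contra hcon
  have h2 : 33554433 * 1260800 ≤ (centralizer ({x} : Set Spor.Co2)).index * Nat.card (centralizer ({x} : Set Spor.Co2)) :=
    Nat.mul_le_mul (by omega) h
  omega

theorem bound_y {N : ℕ} (h0 : 0 < N) (h1 : 2 ^ 17 ∣ N) (h3 : 3 ∣ N) (h7 : 7 ∣ N) : 1260800 ≤ N := by
  have h2 : 3 * 7 ∣ N := (show Nat.Coprime 3 7 by norm_num).mul_dvd_of_dvd_of_dvd h3 h7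
  have c : Nat.Coprime (2 ^ 17) (3 * 7) := Nat.Coprime.pow_left 17 (by norm_num)
  exact le_trans (by norm_num) (Nat.le_of_dvd h0 (c.mul_dvd_of_dvd_of_dvd h1 h2))

theorem bound_v {N : ℕ} (h0 : 0 < N) (h1 : 2 ^ 15 ∣ N) (h9 : 9 ∣ N) (h5 : 5 ∣ N) : 1260800 ≤ N := by
  have h2 : 9 * 5 ∣ N := (show Nat.Coprime 9 5 by norm_num).mul_dvd_of_dvd_of_dvd h9 h5
  have c : Nat.Coprime (2 ^ 15) (9 * 5) := Nat.Coprime.pow_left 15 (by norm_num)
  exact le_trans (by norm_num) (Nat.le_of_dvd h0 (c.mul_dvd_of_dvd_of_dvd h1 h2))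

theorem two_y : 2 ^ 17 ∣ Nat.card (centralizer ({ge my} : Set Spor.Co2)) := cardy ▸ cent_T_le (ge my)

theorem two_v : 2 ^ 15 ∣ Nat.card (centralizer ({ge mv} : Set Spor.Co2)) := cardv ▸ cent_T_le (ge mv)

theorem pos_cent (x : Spor.Co2) : 0 < Nat.card (centralizer ({x} : Set Spor.Co2)) :=
  have := IFCoTwoA.fin
  Nat.card_pos

theorem index_y : (centralizer ({ge my} : Set Spor.Co2)).index ≤ 33554432 :=
  index_le (bound_y (pos_cent _) two_y (dvd_of_chk iy Nat.prime_three chky3) (dvd_of_chk iy Nat.prime_seven chky7))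

theorem index_v : (centralizer ({ge mv} : Set Spor.Co2)).index ≤ 33554432 :=
  index_le (bound_v (pos_cent _) two_v nine (dvd_of_chk iv Nat.prime_five chkv5))

/-! ### the row -/

variable {A : Subgroup Spor.Co2} {Γ : Subgroup (MulAut Spor.Co2)}

theorem rel_le (h : IF A Γ) {n : ℕ} (hn : inE n = true) (hn1 : ge n ≠ 1) (hA : ge n ∈ A)
    (hi : (centralizer ({ge n} : Set Spor.Co2)).index ≤ 33554432) :
    A.relIndex (centralizer ({ge n} : Set Spor.Co2)) ≤ 31 := by
  have := IFCoTwoA.fin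
  have := IFCoTwoA.simple
  have ho : orderOf (ge n) = 2 := orderOf_eq_prime (by rw [pow_two]; exact ge_sq hn) hn1
  obtain ⟨-, -, -, -, h5⟩ := H999.IFB.IF.E2' h KFacts.CoTwo.QuotInst.nonab hA ho
  have h6 := (h5 _ le_rfl).1
  by_contra hcon
  have h7 : 32 ^ 5 ≤ A.relIndex (centralizer ({ge n} : Set Spor.Co2)) ^ 5 := Nat.pow_le_pow_left (by omega) 5
  omega

theorem no_y (h : IF A Γ) (hA : ge my ∈ A) (h1 : ge my ≠ 1) : False := by
  obtain ⟨m, hm, h16, hmA⟩ := of_y (rel_le h iy h1 hA index_y)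
  exact no_2A h hmA (conj_of_16 hm h16)

theorem no_v (h : IF A Γ) (hA : ge mv ∈ A) (h1 : ge mv ≠ 1) : False := by
  obtain ⟨m, hm, h16, hmA⟩ := of_v (rel_le h iv h1 hA index_v)
  exact no_2A h hmA (conj_of_16 hm h16)

theorem killE : KillE Spor.Co2 := by
  rintro A Γ h ⟨t, ht, h2⟩
  have ht1 : t ≠ 1 := by
    rintro rfl
    rw [orderOf_one] at h2
    omega
  have htt : t * t = 1 := by rw [← pow_two, ← h2, pow_orderOf_eq_one]
  have key : ∀ n, IsConj (ge n) t → ∃ g : Spor.Co2, MulAut.conj g t = ge n ∧ ge n ≠ 1 := fun n hc => by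
    obtain ⟨g, hg⟩ := isConj_iff.1 hc.symm
    refine ⟨g, hg, ?_⟩
    intro h1
    rw [h1] at hg
    apply ht1
    have h3 : t = g⁻¹ * (g * t * g⁻¹) * g := by group
    rw [h3, hg]
    group
  rcases Cfsg.Agent.Co2Type.FactsClass.classes htt ht1 with hc | hc | hc
  · exact no_2A h ht hc
  · obtain ⟨g, hg, h1⟩ := key my hc
    exact no_y (h.map (MulAut.conj g)) ⟨t, ht, hg⟩ h1
  · obtain ⟨g, hg, h1⟩ := key mv hc
    exact no_v (h.map (MulAut.conj g)) ⟨t, ht, hg⟩ h1

theorem kill : Kill Spor.Co2 := by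
  intro A Γ h
  have := IFCoTwoA.fin
  have := IFCoTwoA.simple
  obtain ⟨σ, hσ, h2, -⟩ := h.ex
  obtain ⟨a, rfl⟩ := KFacts.CoTwo.QuotInst.allInner σ
  have h4 : a ∈ A := (h.conj a).1 hσ
  rw [H999.IFB.orderOf_conj KFacts.CoTwo.QuotInst.nonab] at h2
  exact killE A Γ h ⟨a, h4, h2⟩

/-- **The row `co2`.** -/
theorem row_co2 : Row fun T => Spor.IsoCo2 T := by
  apply Row.of_kill
  rintro T _ _ _ - ⟨e⟩
  exact Kill.congr e.symm kill

end Cfsg.Agent.H285.IFCoTwoD
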